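import Mathlib
import Cfsg.Prelude.Def_KGroupFacts
import Cfsg.Agent.Lib.Schur.Hopf

/-!
# Restriction and corestriction on Schur multipliers

For a subgroup `U` of index `m` of a finite group `G`, with multipliers `B` and `A`, there are
homomorphisms `tr : A → B` and `cor : B → A` with `cor (tr a) = a ^ m`.
-/

set_option autoImplicit false

namespace Cfsg.Agent.Lib.Schur.Corestriction

open Cfsg Cfsg.Agent.Lib.Schur.Hopf
open scoped commutatorElement

universe u v w

section General

variable {F : Type*} [Group F] (H : Subgroup F) [H.FiniteIndex] {S : Subgroup F} [S.Normal]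
variable {C : Type*} [CommGroup C]

/-- The conjugate of an element of a normal subgroup. -/
def cj (t : F) (s : S) : S :=
  ⟨t⁻¹ * s * t, by
    have := (inferInstance : S.Normal).conj_mem s s.2 t⁻¹
    simpa using this⟩

@[simp] theorem cj_coe (t : F) (s : S) : ((cj t s : S) : F) = t⁻¹ * s * t := rfl

theorem cj_mul (t : F) (a b : S) : cj t (a * b) = cj t a * cj t b := by
  apply Subtype.ext
  simp only [cj_coe, Subgroup.coe_mul]
  group

/-- The "transfer" of a hom `S → C`. -/
noncomputable def trι (t : F ⧸ H → F) (ι : S →* C) : S →* C :=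
  letI := H.fintypeQuotientOfFiniteIndex
  MonoidHom.mk' (fun s => ∏ q : F ⧸ H, ι (cj (t q) s)) (by
    intro a b
    simp only [cj_mul, map_mul]
    exact Finset.prod_mul_distrib)

theorem trι_apply (t : F ⧸ H → F) (ι : S →* C) (s : S) :
    letI := H.fintypeQuotientOfFiniteIndex
    trι H t ι s = ∏ q : F ⧸ H, ι (cj (t q) s) := rfl

theorem map_trι {C' : Type*} [CommGroup C'] (θ : C →* C') (t : F ⧸ H → F) (ι : S →* C) (s : S) :
    θ (trι H t ι s) = trι H t (θ.comp ι) s := by
  rw [trι_apply, trι_apply, map_prod]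
  rfl

variable {H}

/-- The transfer of a hom invariant under `H` is invariant under everything. -/
theorem trι_conj {t : F ⧸ H → F} (ht : ∀ q, (QuotientGroup.mk (t q) : F ⧸ H) = q) {ι : S →* C}
    (hι : ∀ f ∈ H, ∀ s : S, ι (cj f s) = ι s) (g : F) (s : S) :
    trι H t ι (cj g s) = trι H t ι s := by
  rw [trι_apply, trι_apply]
  letI := H.fintypeQuotientOfFiniteIndex
  refine Fintype.prod_equiv (MulAction.toPerm g) _ _ (fun q => ?_)
  simp only [MulAction.toPerm_apply]
  have hf : (t (g • q))⁻¹ * (g * t q) ∈ H := by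
    rw [← QuotientGroup.eq]
    rw [ht]
    have : (QuotientGroup.mk (g * t q) : F ⧸ H) = g • (QuotientGroup.mk (t q) : F ⧸ H) := rfl
    rw [this, ht]
  have h1 : cj (t q) (cj g s) = cj ((t (g • q))⁻¹ * (g * t q)) (cj (t (g • q)) s) := by
    apply Subtype.ext
    simp only [cj_coe]
    group
  rw [h1, hι _ hf]

/-- The transfer of an invariant hom is a power. -/
theorem trι_of_invariant (t : F ⧸ H → F) {ι : S →* C} (hι : ∀ f : F, ∀ s : S, ι (cj f s) = ι s)
    (s : S) : trι H t ι s = (ι s) ^ H.index := by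
  rw [trι_apply]
  letI := H.fintypeQuotientOfFiniteIndex
  simp only [hι]
  rw [Finset.prod_const, Finset.card_univ, Subgroup.index_eq_card, Nat.card_eq_fintype_card]

/-- The transfer hom restricted to a normal subgroup in `H`. -/
theorem transfer_eq_trι (hSH : S ≤ H) (ϕ : H →* C) (T : H.LeftTransversal) (ι : S →* C)
    (hι : ∀ s : S, ι s = ϕ ⟨s, hSH s.2⟩) (s : S) :
    MonoidHom.transfer ϕ s = trι H (fun q => (T.2.leftQuotientEquiv q : F)) ι s := by
  rw [MonoidHom.transfer_def ϕ T, trι_apply, Subgroup.leftTransversals.diff]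
  refine Finset.prod_congr rfl (fun q _ => ?_)
  rw [hι]
  congr 1
  apply Subtype.ext
  simp only [cj_coe]
  rw [Subgroup.smul_apply_eq_smul_apply_inv_smul]
  have hq : (s : F)⁻¹ • q = q := by
    induction q using QuotientGroup.induction_on with
    | H x =>
      show (QuotientGroup.mk ((s : F)⁻¹ * x) : F ⧸ H) = QuotientGroup.mk x
      rw [QuotientGroup.eq]
      have h2 : ((s : F)⁻¹ * x)⁻¹ * x = x⁻¹ * s * x := by group
      rw [h2]
      exact hSH (cj x s).2
  rw [hq, smul_eq_mul, mul_assoc]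

end General

section Finite

/-- A free group that is finitely generated has a finite basis. -/
theorem finite_of_fg_freeGroup {X : Type*} [Group.FG (FreeGroup X)] : Finite X := by
  have hs : Function.Surjective (abF X) := by
    intro y
    induction y using Multiplicative.rec with
    | _ x =>
      induction x using FreeAbelianGroup.induction_on with
      | zero => exact ⟨1, by simp⟩
      | of x => exact ⟨FreeGroup.of x, by simp [abF]⟩
      | neg x h =>
        exact ⟨(FreeGroup.of x)⁻¹, by simp [abF]⟩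
      | add x y hx hy =>
        obtain ⟨w, hw⟩ := hx
        obtain ⟨w', hw'⟩ := hy
        exact ⟨w * w', by rw [map_mul, hw, hw', ofAdd_add]⟩
  have h1 : Group.FG (Multiplicative (FreeAbelianGroup X)) := Group.fg_of_surjective hs
  have h2 : AddGroup.FG (FreeAbelianGroup X) := AddGroup.fg_iff_mul_fg.mpr h1
  have h3 : Module.Finite ℤ (FreeAbelianGroup X) := Module.Finite.iff_addGroup_fg.mpr h2
  exact Module.Finite.finite_basis (FreeAbelianGroup.basis X)

end Finite

section AA

open scoped IsMulCommutative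

variable {X : Type*} {G : Type*} [Group G] (α : FreeGroup X →* G)

/-- The natural map onto the multiplier. -/
noncomputable def aa : ↥(commutator (FreeGroup X) ⊓ α.ker) →* MM α :=
  MonoidHom.mk' (fun w => ⟨⟨(QuotientGroup.mk (w : FreeGroup X) : EE α), mk_mem_center α w.2.2⟩,
    (mem_MM_iff _).mpr ⟨w, w.2, rfl⟩⟩) (fun _ _ => rfl)

theorem aa_surjective : Function.Surjective (aa α) := by
  intro z
  obtain ⟨w, hw, h⟩ := (mem_MM_iff _).mp z.2
  refine ⟨⟨w, hw⟩, Subtype.ext (Subtype.ext h)⟩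

theorem aa_coe (w : ↥(commutator (FreeGroup X) ⊓ α.ker)) :
    (((aa α w : MM α) : Subgroup.center (EE α)) : EE α) = QuotientGroup.mk (w : FreeGroup X) := rfl

theorem mem_cc_of_aa {w : ↥(commutator (FreeGroup X) ⊓ α.ker)} (h : aa α w = 1) :
    (w : FreeGroup X) ∈ cc α := by
  have h1 := congrArg (fun z : MM α => ((z : Subgroup.center (EE α)) : EE α)) h
  exact (QuotientGroup.eq_one_iff _).mp h1

end AA

open scoped IsMulCommutative in
/-- Restriction and corestriction on Schur multipliers. -/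
theorem exists_tr_cor {G : Type u} [Group G] [Finite G] (U : Subgroup G) {A : Type v} {B : Type w}
    [CommGroup A] [CommGroup B] (hA : HasSchurMultiplier G A) (hB : HasSchurMultiplier U B) :
    ∃ (tr : A →* B) (cor : B →* A), ∀ a, cor (tr a) = a ^ U.index := by
  classical
  let α := alphaCan G
  have hα : Function.Surjective α := alphaCan_surjective G
  let H : Subgroup (FreeGroup G) := U.comap α
  have hidx : H.index = U.index := Subgroup.index_comap_of_surjective U hα
  have hfi : H.FiniteIndex := ⟨by rw [hidx]; exact Subgroup.index_ne_zero_of_finite⟩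
  have hSH : α.ker ≤ H := by
    intro x hx
    show α x ∈ U
    rw [show α x = 1 from hx]
    exact one_mem _
  let e : FreeGroup (IsFreeGroup.Generators H) ≃* H := (IsFreeGroup.toFreeGroup H).symm
  have hFG : Group.FG (FreeGroup (IsFreeGroup.Generators H)) :=
    Group.fg_of_surjective (f := e.symm.toMonoidHom) e.symm.surjective
  have hX : Finite (IsFreeGroup.Generators H) := finite_of_fg_freeGroup
  let α₁ : FreeGroup (IsFreeGroup.Generators H) →* U := (α.subgroupComap U).comp e.toMonoidHom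
  have hα₁ : Function.Surjective α₁ :=
    (MonoidHom.subgroupComap_surjective_of_surjective _ _ hα).comp e.surjective
  obtain ⟨eA⟩ := nonempty_mulEquiv_MM hA hα
  obtain ⟨eB⟩ := nonempty_mulEquiv_MM hB hα₁
  let Φ : FreeGroup (IsFreeGroup.Generators H) →* FreeGroup G := H.subtype.comp e.toMonoidHom
  have hα₁Φ : ∀ x, ((α₁ x : U) : G) = α (Φ x) := fun x => rfl
  let toS : α.ker →* FreeGroup (IsFreeGroup.Generators H) :=
    e.symm.toMonoidHom.comp (Subgroup.inclusion hSH)
  have hΦtoS : ∀ s : α.ker, Φ (toS s) = s := by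
    intro s
    show ((e (e.symm _) : H) : FreeGroup G) = s
    rw [MulEquiv.apply_symm_apply]
    rfl
  have htoSker : ∀ s : α.ker, toS s ∈ α₁.ker := by
    intro s
    rw [MonoidHom.mem_ker]
    apply Subtype.ext
    rw [hα₁Φ, hΦtoS]
    exact s.2
  let ι₁ : α.ker →* Subgroup.center (EE α₁) := MonoidHom.mk'
    (fun s => ⟨(QuotientGroup.mk (toS s) : EE α₁), mk_mem_center α₁ (htoSker s)⟩)
    (fun a b => Subtype.ext (by
      show (QuotientGroup.mk (toS (a * b)) : EE α₁) = QuotientGroup.mk (toS a) * QuotientGroup.mk (toS b)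
      rw [map_mul]
      rfl))
  let ι₂ : α.ker →* Subgroup.center (EE α) := MonoidHom.mk'
    (fun s => ⟨(QuotientGroup.mk (s : FreeGroup G) : EE α), mk_mem_center α s.2⟩)
    (fun _ _ => rfl)
  let ι₃ : α.ker →* Abelianization (FreeGroup (IsFreeGroup.Generators H)) :=
    Abelianization.of.comp toS
  let Ξ : α.ker →* Subgroup.center (EE α₁) × Subgroup.center (EE α) ×
      Abelianization (FreeGroup (IsFreeGroup.Generators H)) := ι₁.prod (ι₂.prod ι₃)
  let ϕ : H →* Abelianization (FreeGroup (IsFreeGroup.Generators H)) :=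
    Abelianization.of.comp e.symm.toMonoidHom
  let T : H.LeftTransversal := default
  let t : FreeGroup G ⧸ H → FreeGroup G := fun q => (T.2.leftQuotientEquiv q : FreeGroup G)
  have ht : ∀ q, (QuotientGroup.mk (t q) : FreeGroup G ⧸ H) = q := fun q =>
    Subgroup.IsComplement.quotientGroupMk_leftQuotientEquiv T.2 q
  have hι₂inv : ∀ (f : FreeGroup G) (s : α.ker), ι₂ (cj f s) = ι₂ s := by
    intro f s
    apply Subtype.ext
    show (QuotientGroup.mk (f⁻¹ * s * f) : EE α) = QuotientGroup.mk (s : FreeGroup G)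
    rw [QuotientGroup.mk_mul, QuotientGroup.mk_mul, QuotientGroup.mk_inv,
      Subgroup.mem_center_iff.mp (mk_mem_center α s.2) (QuotientGroup.mk f)⁻¹, inv_mul_cancel_right]
  have hΞinv : ∀ f ∈ H, ∀ s : α.ker, Ξ (cj f s) = Ξ s := by
    intro f hf s
    have h1 : toS (cj f s) = (e.symm ⟨f, hf⟩)⁻¹ * toS s * e.symm ⟨f, hf⟩ := by
      show e.symm _ = _
      rw [← map_inv, show toS s = e.symm ⟨s, hSH s.2⟩ from rfl, ← map_mul, ← map_mul]
      rfl
    refine Prod.ext ?_ (Prod.ext ?_ ?_)
    · apply Subtype.ext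
      show (QuotientGroup.mk (toS (cj f s)) : EE α₁) = QuotientGroup.mk (toS s)
      rw [h1, QuotientGroup.mk_mul, QuotientGroup.mk_mul, QuotientGroup.mk_inv,
        Subgroup.mem_center_iff.mp (mk_mem_center α₁ (htoSker s)) (QuotientGroup.mk (e.symm ⟨f, hf⟩))⁻¹,
        inv_mul_cancel_right]
    · exact hι₂inv f s
    · show Abelianization.of (toS (cj f s)) = Abelianization.of (toS s)
      rw [h1, map_mul, map_mul, map_inv, mul_comm _ (Abelianization.of (toS s)), mul_assoc,
        inv_mul_cancel, mul_one]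
  let trC := trι H t Ξ
  have hconj : ∀ (g : FreeGroup G) (s : α.ker), trC (cj g s) = trC s := trι_conj ht hΞinv
  have hcc : ∀ (x : FreeGroup G) (hx : x ∈ cc α), trC ⟨x, cc_le_ker α hx⟩ = 1 := by
    have hle : cc α ≤ (trC.ker).map α.ker.subtype := by
      refine Subgroup.commutator_le.mpr ?_
      intro s hs g _
      have hmem : ⁅s, g⁆ ∈ α.ker := cc_le_ker α (commutator_mem_cc hs)
      refine ⟨⟨_, hmem⟩, ?_, rfl⟩
      have h1 : (⟨⁅s, g⁆, hmem⟩ : α.ker) = ⟨s, hs⟩ * cj g⁻¹ (⟨s, hs⟩ : α.ker)⁻¹ := by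
        apply Subtype.ext
        simp only [Subgroup.coe_mul, cj_coe, Subgroup.coe_inv, inv_inv, commutatorElement_def]
        group
      show trC _ = 1
      rw [h1, map_mul, hconj, map_inv, mul_inv_cancel]
    intro x hx
    obtain ⟨y, hy, hxy⟩ := hle hx
    have h2 : (⟨x, cc_le_ker α hx⟩ : α.ker) = y := Subtype.ext hxy.symm
    rw [h2]
    exact hy
  have hrange : ∀ s : α.ker, ∃ u : α.ker, Ξ u = trC s := by
    intro s
    have : trC s ∈ Ξ.range := by
      rw [show trC s = _ from trι_apply H t Ξ s]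
      exact Subgroup.prod_mem _ (fun q _ => ⟨_, rfl⟩)
    exact this
  have h2nd : ∀ s : α.ker, (trC s).2.1 = (ι₂ s) ^ H.index := by
    intro s
    have := map_trι H ((MonoidHom.fst _ _).comp (MonoidHom.snd _ _)) t Ξ s
    have h3 : ((MonoidHom.fst (Subgroup.center (EE α))
      (Abelianization (FreeGroup (IsFreeGroup.Generators H)))).comp (MonoidHom.snd _ _)).comp Ξ = ι₂ := rfl
    rw [h3, trι_of_invariant t hι₂inv s] at this
    exact this
  have h3rd : ∀ s : α.ker, (trC s).2.2 = MonoidHom.transfer ϕ s := by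
    intro s
    have := map_trι H (MonoidHom.snd _ _ |>.comp (MonoidHom.snd _ _)) t Ξ s
    have h3 : ((MonoidHom.snd (Subgroup.center (EE α))
      (Abelianization (FreeGroup (IsFreeGroup.Generators H)))).comp (MonoidHom.snd _ _)).comp Ξ = ι₃ := rfl
    rw [h3] at this
    rw [transfer_eq_trι hSH ϕ T ι₃ (fun s => rfl) s]
    exact this
  -- the transfer kills the commutator subgroup
  have hV : ∀ w ∈ commutator (FreeGroup G), MonoidHom.transfer ϕ w = 1 := by
    intro w hw
    have hle : commutator (FreeGroup G) ≤ (MonoidHom.transfer ϕ).ker := by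
      rw [commutator_def, Subgroup.commutator_le]
      intro g _ h _
      rw [MonoidHom.mem_ker, map_commutatorElement, commutatorElement_eq_one_iff_mul_comm, mul_comm]
    exact hle hw
  -- the image lies in the multiplier of `U`
  have hb₀ : ∀ w : ↥(commutator (FreeGroup G) ⊓ α.ker), (trC ⟨w, w.2.2⟩).1 ∈ MM α₁ := by
    intro w
    obtain ⟨u, hu⟩ := hrange ⟨w, w.2.2⟩
    have h3 : ι₃ u = 1 := by
      have : (Ξ u).2.2 = (trC ⟨w, w.2.2⟩).2.2 := congrArg (fun x => x.2.2) hu
      rw [h3rd, hV _ w.2.1] at this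
      exact this
    have h4 : toS u ∈ commutator (FreeGroup (IsFreeGroup.Generators H)) :=
      (QuotientGroup.eq_one_iff _).mp h3
    rw [mem_MM_iff]
    refine ⟨toS u, Subgroup.mem_inf.mpr ⟨h4, htoSker u⟩, ?_⟩
    have := congrArg (fun x => ((x.1 : Subgroup.center (EE α₁)) : EE α₁)) hu
    exact this
  let b₀ : ↥(commutator (FreeGroup G) ⊓ α.ker) →* MM α₁ := MonoidHom.mk'
    (fun w => ⟨(trC ⟨w, w.2.2⟩).1, hb₀ w⟩) (by
      intro a b
      apply Subtype.ext
      show (trC (⟨a, a.2.2⟩ * ⟨b, b.2.2⟩)).1 = _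
      rw [map_mul]
      rfl)
  have hk₀ : (aa α).ker ≤ b₀.ker := by
    intro w hw
    have h1 := mem_cc_of_aa α hw
    apply Subtype.ext
    show (trC ⟨w, w.2.2⟩).1 = 1
    rw [hcc _ h1]
    rfl
  obtain ⟨tr₀, htr₀⟩ := exists_factor (aa α) b₀ (aa_surjective α) hk₀
  -- the corestriction
  have hΦc : ∀ x ∈ commutator (FreeGroup (IsFreeGroup.Generators H)), Φ x ∈ commutator (FreeGroup G) := by
    intro x hx
    have h : (commutator (FreeGroup (IsFreeGroup.Generators H))).map Φ ≤ commutator (FreeGroup G) := by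
      rw [commutator_def, Subgroup.map_commutator]
      exact Subgroup.commutator_mono le_top le_top
    exact h (Subgroup.mem_map_of_mem Φ hx)
  have hΦS : ∀ x ∈ α₁.ker, Φ x ∈ α.ker := by
    intro x hx
    rw [MonoidHom.mem_ker, ← hα₁Φ, show α₁ x = 1 from hx]
    rfl
  have hΦcc : ∀ x ∈ cc α₁, Φ x ∈ cc α := by
    intro x hx
    have h : (cc α₁).map Φ ≤ cc α := by
      unfold cc
      rw [Subgroup.map_commutator]
      refine Subgroup.commutator_mono ?_ le_top
      rintro _ ⟨y, hy, rfl⟩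
      exact hΦS y hy
    exact h (Subgroup.mem_map_of_mem Φ hx)
  let c₁ : ↥(commutator (FreeGroup (IsFreeGroup.Generators H)) ⊓ α₁.ker) →*
      ↥(commutator (FreeGroup G) ⊓ α.ker) := MonoidHom.mk'
    (fun w => ⟨Φ w, Subgroup.mem_inf.mpr ⟨hΦc _ w.2.1, hΦS _ w.2.2⟩⟩) (by
      intro a b
      apply Subtype.ext
      exact map_mul Φ _ _)
  have hk₁ : (aa α₁).ker ≤ ((aa α).comp c₁).ker := by
    intro w hw
    have h1 := mem_cc_of_aa α₁ hw
    rw [MonoidHom.mem_ker]
    apply Subtype.ext
    apply Subtype.ext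
    exact (QuotientGroup.eq_one_iff _).mpr (hΦcc _ h1)
  obtain ⟨cor₀, hcor₀⟩ := exists_factor (aa α₁) ((aa α).comp c₁) (aa_surjective α₁) hk₁
  have hcomp : ∀ z : MM α, cor₀ (tr₀ z) = z ^ U.index := by
    intro z
    obtain ⟨w, rfl⟩ := aa_surjective α z
    have h1 : tr₀ (aa α w) = b₀ w := congrArg (fun f => f w) htr₀
    obtain ⟨u, hu⟩ := hrange ⟨w, w.2.2⟩
    have h3 : ι₃ u = 1 := by
      have : (Ξ u).2.2 = (trC ⟨w, w.2.2⟩).2.2 := congrArg (fun x => x.2.2) hu
      rw [h3rd, hV _ w.2.1] at this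
      exact this
    have h4 : toS u ∈ commutator (FreeGroup (IsFreeGroup.Generators H)) :=
      (QuotientGroup.eq_one_iff _).mp h3
    let w₁ : ↥(commutator (FreeGroup (IsFreeGroup.Generators H)) ⊓ α₁.ker) :=
      ⟨toS u, Subgroup.mem_inf.mpr ⟨h4, htoSker u⟩⟩
    have h5 : aa α₁ w₁ = b₀ w := by
      apply Subtype.ext
      have := congrArg (fun x => x.1) hu
      exact this
    rw [h1, ← h5]
    have h6 : cor₀ (aa α₁ w₁) = aa α (c₁ w₁) := congrArg (fun f => f w₁) hcor₀
    rw [h6]
    apply Subtype.ext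
    apply Subtype.ext
    have h7 : (((aa α (c₁ w₁) : MM α) : Subgroup.center (EE α)) : EE α) = QuotientGroup.mk (u : FreeGroup G) := by
      show (QuotientGroup.mk (Φ (toS u)) : EE α) = _
      rw [hΦtoS]
    rw [h7]
    have h8 : ι₂ u = (ι₂ ⟨w, w.2.2⟩) ^ H.index := by
      rw [← h2nd, ← hu]
      rfl
    rw [hidx] at h8
    have h9 := congrArg Subtype.val h8
    exact h9
  refine ⟨eB.toMonoidHom.comp (tr₀.comp eA.symm.toMonoidHom),
    eA.toMonoidHom.comp (cor₀.comp eB.symm.toMonoidHom), ?_⟩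
  intro a
  simp only [MonoidHom.comp_apply, MulEquiv.coe_toMonoidHom, MulEquiv.symm_apply_apply]
  rw [hcomp, map_pow, MulEquiv.apply_symm_apply]

/-- A direct factor from a retraction. -/
theorem exists_direct_factor {A B : Type*} [CommGroup A] [Finite A] [CommGroup B] (p : ℕ)
    [hp : Fact p.Prime] (tr : A →* B) (cor : B →* A) (m : ℕ) (hm : ¬ p ∣ m)
    (h : ∀ a, cor (tr a) = a ^ m) :
    ∃ C D : Subgroup B, C ⊓ D = ⊥ ∧ C ⊔ D = ⊤ ∧ Nonempty (CommGroup.primaryComponent A p ≃* C) := by
  classical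
  -- the numerics
  have hN : Nat.card A ≠ 0 := Nat.card_pos.ne'
  obtain ⟨k, n', hn', hk⟩ := Nat.exists_eq_pow_mul_and_not_dvd hN p hp.out.ne_one
  have hcop : Nat.Coprime (p ^ k) (m * n') := by
    apply Nat.Coprime.pow_left
    rw [Nat.Prime.coprime_iff_not_dvd hp.out]
    intro hd
    rcases (Nat.Prime.dvd_mul hp.out).mp hd with h1 | h1
    · exact hm h1
    · exact hn' h1
  obtain ⟨u, hu⟩ : ∃ u : ℕ, (m * n') * u ≡ 1 [MOD p ^ k] := by
    by_cases hk1 : p ^ k = 1
    · exact ⟨0, by rw [hk1]; exact Nat.modEq_one⟩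
    · have h1k : 1 < p ^ k := by
        have : 0 < p ^ k := pow_pos hp.out.pos k
        omega
      obtain ⟨u, hu⟩ := Nat.exists_mul_mod_eq_one_of_coprime hcop.symm h1k
      exact ⟨u, by
        show _ % _ = _ % _
        rw [hu.2, Nat.mod_eq_of_lt h1k]⟩
  let e := n' * u
  have hmem : ∀ a : A, a ^ e ∈ CommGroup.primaryComponent A p := by
    intro a
    refine ⟨k, ?_⟩
    show (a ^ (n' * u)) ^ p ^ k = 1
    rw [← pow_mul, show n' * u * p ^ k = (p ^ k * n') * u by ring, ← hk, pow_mul, pow_card_eq_one', one_pow]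
  have hfix : ∀ a ∈ CommGroup.primaryComponent A p, (a ^ m) ^ e = a := by
    rintro a ⟨j, hj⟩
    have ho : orderOf a ∣ p ^ k := by
      have h1 : orderOf a ∣ p ^ j := orderOf_dvd_of_pow_eq_one hj
      have h2 : orderOf a ∣ Nat.card A := orderOf_dvd_natCard a
      obtain ⟨i, _, hi⟩ := (Nat.dvd_prime_pow hp.out).mp h1
      rw [hi] at h2 ⊢
      rw [hk] at h2
      have h3 : Nat.Coprime (p ^ i) n' := by
        apply Nat.Coprime.pow_left
        exact (Nat.Prime.coprime_iff_not_dvd hp.out).mpr hn'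
      exact h3.dvd_of_dvd_mul_right h2
    have h4 : a ^ (m * n' * u) = a ^ 1 := pow_eq_pow_iff_modEq.mpr (hu.of_dvd ho)
    rw [← pow_mul, show m * e = m * n' * u by simp only [e]; ring, h4, pow_one]
  let ρ : B →* CommGroup.primaryComponent A p :=
    ((powMonoidHom e : A →* A).comp cor).codRestrict _ (fun b => hmem (cor b))
  let ι : CommGroup.primaryComponent A p →* B := tr.comp (CommGroup.primaryComponent A p).subtype
  have hρι : ∀ a, ρ (ι a) = a := by
    intro a
    apply Subtype.ext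
    show (cor (tr a)) ^ e = a
    rw [h]
    exact hfix a a.2
  have hι : Function.Injective ι := Function.LeftInverse.injective hρι
  refine ⟨ι.range, ρ.ker, ?_, ?_, ⟨MonoidHom.ofInjective hι⟩⟩
  · rw [eq_bot_iff]
    rintro x ⟨⟨a, rfl⟩, hx⟩
    have : ρ (ι a) = 1 := hx
    rw [hρι] at this
    rw [this, map_one]
    exact one_mem _
  · rw [eq_top_iff]
    intro b _
    rw [Subgroup.mem_sup]
    refine ⟨ι (ρ b), ⟨_, rfl⟩, (ι (ρ b))⁻¹ * b, ?_, by group⟩
    show ρ _ = 1
    rw [map_mul, map_inv, hρι, inv_mul_cancel]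

end Cfsg.Agent.Lib.Schur.Corestriction
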