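import Mathlib
import Cfsg.Prelude.Def_KGroupFacts
import Cfsg.Agent.Lib.Schur.Hopf
import Cfsg.Agent.Lib.Schur.Product
import Cfsg.Agent.Lib.Schur.Basic

/-!
# Projective representations and Schur covers
-/

set_option autoImplicit false

namespace Cfsg.Agent.Lib.Schur.Proj

open Cfsg Cfsg.Agent.Lib.Schur.Hopf
open scoped commutatorElement

universe u v

/-- Extension of a hom from a subgroup to a divisible commutative group, if it is trivial
on the part of the subgroup in the commutator subgroup. -/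
theorem exists_ext_of_divisible {G D : Type*} [Group G] [CommGroup D]
    (hD : ∀ (n : ℤ), n ≠ 0 → ∀ d : D, ∃ x : D, x ^ n = d) (K : Subgroup G) (χ : K →* D)
    (hχ : ∀ k : K, (k : G) ∈ commutator G → χ k = 1) : ∃ χ' : G →* D, ∀ k : K, χ' k = χ k := by
  classical
  let φ : K →* Abelianization G := Abelianization.of.comp K.subtype
  have hφ : φ.rangeRestrict.ker ≤ χ.ker := by
    intro k hk
    apply hχ
    rw [MonoidHom.ker_rangeRestrict] at hk
    exact (QuotientGroup.eq_one_iff _).mp hk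
  obtain ⟨χ₁, hχ₁⟩ := exists_factor φ.rangeRestrict χ φ.rangeRestrict_surjective hφ
  let ι : Additive φ.range →+ Additive (Abelianization G) := MonoidHom.toAdditive φ.range.subtype
  have hι : Function.Injective ι := by
    intro a b h
    exact Additive.toMul.injective (Subtype.ext (Additive.ofMul.injective h))
  letI : DivisibleBy (Additive D) ℤ := divisibleByOfSMulRightSurj _ _ (fun {n} hn d => by
    obtain ⟨x, hx⟩ := hD n hn (Additive.toMul d)
    exact ⟨Additive.ofMul x, Additive.toMul.injective hx⟩)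
  obtain ⟨h, hh⟩ := (Module.Baer.of_divisible (Additive D)).extension_property_addMonoidHom ι hι
    (MonoidHom.toAdditive χ₁)
  refine ⟨(MonoidHom.toAdditive.symm h).comp Abelianization.of, ?_⟩
  intro k
  have h1 := congrArg (fun f => f (Additive.ofMul (φ.rangeRestrict k))) hh
  have h2 := congrArg (fun f => f k) hχ₁
  simp only [MonoidHom.comp_apply] at h2
  rw [← h2]
  exact h1

/-- For a cover with kernel the multiplier, `ker a ∩ F' = [S, F]`. -/
theorem inf_commutator_le_cc_of_cover {Q : Type u} [Group Q] [Finite Q] {A : Type v} [CommGroup A]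
    (hA : HasSchurMultiplier Q A) {Γ : Type*} [Group Γ] [Finite Γ] {σ : Γ →* Q}
    (hσ : IsStemExtension σ) (hk : Nonempty (σ.ker ≃* A)) {X : Type u} [Finite X]
    {α : FreeGroup X →* Q} (hα : Function.Surjective α) {a : FreeGroup X →* Γ}
    (ha : σ.comp a = α) : a.ker ⊓ commutator (FreeGroup X) ≤ cc α := by
  obtain ⟨e⟩ := nonempty_mulEquiv_MM hA hα
  obtain ⟨e'⟩ := hk
  let π : MM α →* σ.ker := MonoidHom.codRestrict (mmMap hσ.2.1 ha) _ (fun z =>
    (Subgroup.mem_inf.mp (mmMap_mem_ker hσ.2.1 ha z)).2)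
  have hπs : Function.Surjective π := by
    rintro ⟨x, hx⟩
    obtain ⟨z, hz⟩ := exists_mmMap_eq hα hσ.2.1 ha (hσ.2.2 hx) hx
    exact ⟨z, Subtype.ext hz⟩
  have hfin := finite_MM hα
  have hcard : Nat.card (MM α) = Nat.card σ.ker :=
    (Nat.card_congr e.toEquiv).trans (Nat.card_congr e'.toEquiv).symm
  have hπb : Function.Bijective π := (Nat.bijective_iff_surjective_and_card π).mpr ⟨hπs, hcard⟩
  rintro w ⟨hw, hw'⟩
  have haw : a w = 1 := hw
  have hαw : w ∈ α.ker := by
    rw [MonoidHom.mem_ker, ← ha, MonoidHom.comp_apply, haw, map_one]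
  let z₀ : Subgroup.center (EE α) := ⟨(QuotientGroup.mk w : EE α), mk_mem_center α hαw⟩
  have hz : z₀ ∈ MM α := (mem_MM_iff _).mpr ⟨w, ⟨hw', hαw⟩, rfl⟩
  have h1 : π ⟨z₀, hz⟩ = 1 := by
    apply Subtype.ext
    show mmMap hσ.2.1 ha ⟨z₀, hz⟩ = 1
    rw [mmMap_mk hσ.2.1 ha _ rfl, haw]
  have h2 : (⟨z₀, hz⟩ : MM α) = 1 := hπb.1 (h1.trans (map_one π).symm)
  have h3 : (QuotientGroup.mk w : EE α) = 1 := congrArg (fun x : MM α => ((x : Subgroup.center (EE α)) : EE α)) h2
  exact (QuotientGroup.eq_one_iff w).mp h3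

/-- The centre of `GL n ℂ` is divisible. -/
theorem center_GL_divisible (n : ℕ) (m : ℤ) (hm : m ≠ 0)
    (d : Subgroup.center (GL (Fin n) ℂ)) :
    ∃ x : Subgroup.center (GL (Fin n) ℂ), x ^ m = d := by
  have hroot : ∀ c : ℂˣ, ∃ x : ℂˣ, x ^ m = c := by
    intro c
    have hm' : m.natAbs ≠ 0 := Int.natAbs_ne_zero.mpr hm
    obtain ⟨z, hz⟩ := IsAlgClosed.exists_pow_nat_eq ((c : ℂ) ^ m.sign) (Nat.pos_of_ne_zero hm')
    have hz0 : z ≠ 0 := by
      rintro rfl
      rw [zero_pow hm'] at hz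
      exact zpow_ne_zero _ c.ne_zero hz.symm
    refine ⟨Units.mk0 z hz0, ?_⟩
    apply Units.ext
    rw [Units.val_zpow_eq_zpow_val, Units.val_mk0]
    rcases lt_trichotomy m 0 with h | h | h
    · have hs : m.sign = -1 := Int.sign_eq_neg_one_of_neg h
      have hm2 : m = -(m.natAbs : ℤ) := by omega
      rw [hs] at hz
      rw [hm2, zpow_neg, zpow_natCast, hz]
      simp
    · exact absurd h hm
    · have hs : m.sign = 1 := Int.sign_eq_one_of_pos h
      have hm2 : m = (m.natAbs : ℤ) := by omega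
      rw [hs] at hz
      rw [hm2, zpow_natCast, hz]
      simp
  obtain ⟨c, hc⟩ : (d : GL (Fin n) ℂ) ∈ (Matrix.GeneralLinearGroup.scalar (Fin n)).range := by
    rw [← Matrix.GeneralLinearGroup.center_eq_range_scalar]
    exact d.2
  obtain ⟨x, hx⟩ := hroot c
  have hmem : Matrix.GeneralLinearGroup.scalar (Fin n) x ∈ Subgroup.center (GL (Fin n) ℂ) := by
    rw [Matrix.GeneralLinearGroup.center_eq_range_scalar]
    exact ⟨x, rfl⟩
  refine ⟨⟨_, hmem⟩, Subtype.ext ?_⟩
  show (Matrix.GeneralLinearGroup.scalar (Fin n) x) ^ m = _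
  rw [← map_zpow, hx, hc]

open scoped IsMulCommutative in
/-- Lifting projective representations to a Schur cover. -/
theorem lift_projective {Q : Type u} [Group Q] [Finite Q] {A : Type v} [CommGroup A]
    (hA : HasSchurMultiplier Q A) {Γ : Type*} [Group Γ] [Finite Γ] (σ : Γ →* Q)
    (hσ : IsStemExtension σ) (hk : Nonempty (σ.ker ≃* A)) (n : ℕ)
    (γ : Q →* (GL (Fin n) ℂ ⧸ Subgroup.center (GL (Fin n) ℂ))) :
    ∃ ρ : Γ →* GL (Fin n) ℂ, (QuotientGroup.mk' (Subgroup.center (GL (Fin n) ℂ))).comp ρ = γ.comp σ := by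
  let mk' := QuotientGroup.mk' (Subgroup.center (GL (Fin n) ℂ))
  have hmk : Function.Surjective mk' := QuotientGroup.mk'_surjective _
  have hmkker : mk'.ker ≤ Subgroup.center (GL (Fin n) ℂ) := by
    rw [QuotientGroup.ker_mk']
  let α := alphaCan Q
  have hα : Function.Surjective α := alphaCan_surjective Q
  obtain ⟨a, ha⟩ := exists_lift α hσ.1
  obtain ⟨ψ, hψ⟩ := exists_lift (γ.comp α) hmk
  have has : Function.Surjective a := lift_surjective_of_stem hα hσ ha
  have hαa : ∀ w, α w = σ (a w) := fun w => by rw [← ha]; rfl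
  have hψa : ∀ w, mk' (ψ w) = γ (σ (a w)) := fun w => by
    rw [← hαa]
    exact congrArg (fun f => f w) hψ
  have hψK : ∀ w : a.ker, ψ w ∈ Subgroup.center (GL (Fin n) ℂ) := by
    intro w
    have h1 : mk' (ψ w) = 1 := by
      rw [hψa, show a w = 1 from w.2, map_one, map_one]
    exact (QuotientGroup.eq_one_iff _).mp h1
  let χ : a.ker →* Subgroup.center (GL (Fin n) ℂ) :=
    MonoidHom.codRestrict (ψ.comp a.ker.subtype) _ hψK
  have hχ : ∀ k : a.ker, (k : FreeGroup Q) ∈ commutator (FreeGroup Q) → χ k = 1 := by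
    intro k hk'
    have h1 := inf_commutator_le_cc_of_cover hA hσ hk hα ha (Subgroup.mem_inf.mpr ⟨k.2, hk'⟩)
    have h2 : cc α ≤ cc (γ.comp α) := by
      apply Subgroup.commutator_mono _ le_rfl
      intro x hx
      rw [MonoidHom.mem_ker, MonoidHom.comp_apply, show α x = 1 from hx, map_one]
    have h3 := cc_le_ker_of_lift hmkker hψ (h2 h1)
    exact Subtype.ext h3
  obtain ⟨χ', hχ'⟩ := exists_ext_of_divisible (center_GL_divisible n) a.ker χ hχ
  have hcen : ∀ (z : Subgroup.center (GL (Fin n) ℂ)) (g : GL (Fin n) ℂ), g * z = z * g :=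
    fun z g => Subgroup.mem_center_iff.mp z.2 g
  let ρ₀ : FreeGroup Q →* GL (Fin n) ℂ := MonoidHom.mk' (fun w => ψ w * ((χ' w)⁻¹ : Subgroup.center (GL (Fin n) ℂ))) (by
    intro x y
    simp only [map_mul, mul_inv_rev, Subgroup.coe_mul]
    have := hcen (χ' x)⁻¹ (ψ y)
    calc ψ x * ψ y * (((χ' y)⁻¹ : Subgroup.center (GL (Fin n) ℂ)) * ((χ' x)⁻¹ : Subgroup.center (GL (Fin n) ℂ)))
        = ψ x * ψ y * (((χ' x)⁻¹ : Subgroup.center (GL (Fin n) ℂ)) * ((χ' y)⁻¹ : Subgroup.center (GL (Fin n) ℂ))) := by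
          rw [← Subgroup.coe_mul, ← Subgroup.coe_mul, mul_comm]
      _ = ψ x * (ψ y * ((χ' x)⁻¹ : Subgroup.center (GL (Fin n) ℂ))) * ((χ' y)⁻¹ : Subgroup.center (GL (Fin n) ℂ)) := by group
      _ = ψ x * (((χ' x)⁻¹ : Subgroup.center (GL (Fin n) ℂ)) * ψ y) * ((χ' y)⁻¹ : Subgroup.center (GL (Fin n) ℂ)) := by rw [this]
      _ = _ := by group)
  have hker : a.ker ≤ ρ₀.ker := by
    intro w hw
    rw [MonoidHom.mem_ker]
    show ψ w * ((χ' w)⁻¹ : Subgroup.center (GL (Fin n) ℂ)) = 1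
    have h1 := hχ' ⟨w, hw⟩
    have h2 : χ' w = χ ⟨w, hw⟩ := h1
    rw [h2, Subgroup.coe_inv, mul_inv_eq_one]
    rfl
  obtain ⟨ρ, hρ⟩ := exists_factor a ρ₀ has hker
  refine ⟨ρ, ?_⟩
  apply MonoidHom.ext
  intro y
  obtain ⟨w, rfl⟩ := has y
  have h1 : ρ (a w) = ψ w * ((χ' w)⁻¹ : Subgroup.center (GL (Fin n) ℂ)) :=
    congrArg (fun f => f w) hρ
  show mk' (ρ (a w)) = γ (σ (a w))
  rw [h1, map_mul, hψa]
  have h2 : mk' (((χ' w)⁻¹ : Subgroup.center (GL (Fin n) ℂ)) : GL (Fin n) ℂ) = 1 :=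
    (QuotientGroup.eq_one_iff _).mpr ((χ' w)⁻¹).2
  rw [h2, mul_one]

section Monomial

variable {Δ Q : Type*} [Group Δ] [Group Q]

open Classical in
/-- The extension by zero of a character of a subgroup. -/
noncomputable def hatL {K : Subgroup Δ} (l : K →* ℂˣ) (d : Δ) : ℂ :=
  if h : d ∈ K then ((l ⟨d, h⟩ : ℂˣ) : ℂ) else 0

theorem hatL_of_mem {K : Subgroup Δ} (l : K →* ℂˣ) {d : Δ} (h : d ∈ K) :
    hatL l d = ((l ⟨d, h⟩ : ℂˣ) : ℂ) := dif_pos h

theorem hatL_of_not_mem {K : Subgroup Δ} (l : K →* ℂˣ) {d : Δ} (h : d ∉ K) :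
    hatL l d = 0 := dif_neg h

theorem hatL_mul {K : Subgroup Δ} (l : K →* ℂˣ) (u : Δ) {v : Δ} (hv : v ∈ K) :
    hatL l (u * v) = hatL l u * hatL l v := by
  by_cases hu : u ∈ K
  · rw [hatL_of_mem l hu, hatL_of_mem l hv, hatL_of_mem l (mul_mem hu hv), ← Units.val_mul, ← map_mul]
    rfl
  · have : u * v ∉ K := fun h => hu (by simpa using mul_mem h (inv_mem hv))
    rw [hatL_of_not_mem l hu, hatL_of_not_mem l this, zero_mul]

/-- The matrix of the monomial representation induced from `l`. -/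
noncomputable def monoMat {τ : Δ →* Q} (l : τ.ker →* ℂˣ) (t : Q → Δ) (x : Δ) : Matrix Q Q ℂ :=
  Matrix.of fun q q' => hatL l ((t q)⁻¹ * x * t q')

variable {τ : Δ →* Q} (l : τ.ker →* ℂˣ) {t : Q → Δ}

theorem monoMat_one [DecidableEq Q] (ht : ∀ q, τ (t q) = q) : monoMat l t 1 = 1 := by
  ext q q'
  simp only [monoMat, Matrix.of_apply, Matrix.one_apply]
  split_ifs with h
  · subst h
    have : (t q)⁻¹ * 1 * t q = 1 := by group
    rw [this, hatL_of_mem l (one_mem _)]
    exact congrArg Units.val (map_one l)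
  · apply hatL_of_not_mem
    intro hm
    have := (MonoidHom.mem_ker).mp hm
    simp only [map_mul, map_inv, ht, map_one, mul_one] at this
    exact h (inv_mul_eq_one.mp this)

theorem monoMat_mul [Fintype Q] (ht : ∀ q, τ (t q) = q) (x y : Δ) :
    monoMat l t (x * y) = monoMat l t x * monoMat l t y := by
  classical
  ext q q''
  simp only [monoMat, Matrix.mul_apply, Matrix.of_apply]
  rw [Finset.sum_eq_single (τ y * q'')]
  · have hv : (t (τ y * q''))⁻¹ * y * t q'' ∈ τ.ker := by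
      rw [MonoidHom.mem_ker]
      simp only [map_mul, map_inv, ht]
      group
    rw [← hatL_mul l _ hv]
    congr 1
    group
  · intro q' _ hq'
    have : (t q')⁻¹ * y * t q'' ∉ τ.ker := by
      intro hm
      have := (MonoidHom.mem_ker).mp hm
      simp only [map_mul, map_inv, ht] at this
      apply hq'
      rw [mul_assoc, inv_mul_eq_one] at this
      exact this
    rw [hatL_of_not_mem l this, mul_zero]
  · intro h
    exact absurd (Finset.mem_univ _) h

theorem monoMat_central [DecidableEq Q] (ht : ∀ q, τ (t q) = q)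
    (hc : τ.ker ≤ Subgroup.center Δ) (k : τ.ker) :
    monoMat l t k = ((l k : ℂˣ) : ℂ) • (1 : Matrix Q Q ℂ) := by
  ext q q'
  simp only [monoMat, Matrix.of_apply, Matrix.smul_apply, Matrix.one_apply, smul_eq_mul]
  have hk := Subgroup.mem_center_iff.mp (hc k.2)
  have e1 : (t q)⁻¹ * k * t q' = k * ((t q)⁻¹ * t q') := by
    rw [hk]
    group
  rw [e1]
  split_ifs with h
  · subst h
    rw [inv_mul_cancel, mul_one, hatL_of_mem l k.2, mul_one]
  · rw [mul_zero]
    apply hatL_of_not_mem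
    intro hm
    have := (MonoidHom.mem_ker).mp hm
    simp only [map_mul, map_inv, ht] at this
    rw [show τ (k : Δ) = 1 from k.2, one_mul] at this
    exact h (inv_mul_eq_one.mp this)

/-- The monomial representation: a finite-dimensional representation of a central extension
realizing a given character of the kernel. -/
theorem exists_monomial [Finite Q] (hτs : Function.Surjective τ) (hc : τ.ker ≤ Subgroup.center Δ) :
    ∃ (N : ℕ) (Ψ : Δ →* GL (Fin N) ℂ), (∀ k : τ.ker, Ψ k ∈ Subgroup.center (GL (Fin N) ℂ)) ∧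
      ∀ k : τ.ker, Ψ k = 1 → l k = 1 := by
  classical
  letI := Fintype.ofFinite Q
  choose t ht using hτs
  let e := Fintype.equivFin Q
  let R := Matrix.reindexAlgEquiv ℂ ℂ e
  let Ψ₀ : Δ →* Matrix (Fin (Fintype.card Q)) (Fin (Fintype.card Q)) ℂ :=
    { toFun := fun x => R (monoMat l t x)
      map_one' := by rw [monoMat_one l ht, map_one]
      map_mul' := fun x y => by rw [monoMat_mul l ht, map_mul] }
  refine ⟨_, Ψ₀.toHomUnits, ?_, ?_⟩
  · intro k
    rw [Matrix.GeneralLinearGroup.mem_center_iff_val_mem_range_scalar]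
    refine ⟨((l k : ℂˣ) : ℂ), ?_⟩
    show _ = R (monoMat l t k)
    rw [monoMat_central l ht hc, map_smul, map_one, Matrix.smul_one_eq_diagonal]
    rfl
  · intro k hk
    have h1 : R (monoMat l t k) = 1 := by
      exact congrArg Units.val hk
    have h2 : monoMat l t k = 1 := by
      apply R.injective
      rw [h1, map_one]
    rw [monoMat_central l ht hc] at h2
    have h3 := congrArg (fun m : Matrix Q Q ℂ => m 1 1) h2
    simp only [Matrix.smul_apply, Matrix.one_apply_eq, smul_eq_mul, mul_one] at h3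
    exact Units.ext h3

end Monomial

/-- A stem extension through which all projective representations lift is a Schur cover. -/
theorem surj_of_lifts {Q : Type u} [Group Q] [Finite Q] {Γ : Type*} [Group Γ] [Finite Γ]
    (σ : Γ →* Q) (hσ : IsStemExtension σ)
    (hlift : ∀ (n : ℕ) (γ : Q →* (GL (Fin n) ℂ ⧸ Subgroup.center (GL (Fin n) ℂ))),
      ∃ ρ : Γ →* GL (Fin n) ℂ, (QuotientGroup.mk' (Subgroup.center (GL (Fin n) ℂ))).comp ρ = γ.comp σ)
    {Δ : Type*} [Group Δ] [Finite Δ] (τ : Δ →* Q) (hτ : IsStemExtension τ) :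
    ∃ π : σ.ker →* τ.ker, Function.Surjective π := by
  classical
  let α := alphaCan Q
  have hα : Function.Surjective α := alphaCan_surjective Q
  obtain ⟨a, ha⟩ := exists_lift α hσ.1
  obtain ⟨b, hb⟩ := exists_lift α hτ.1
  refine exists_ker_surj hσ hτ hα ha hb ?_
  rintro w ⟨hw, hw'⟩
  have hαa : ∀ w, α w = σ (a w) := fun w => by rw [← ha]; rfl
  have hαb : ∀ w, α w = τ (b w) := fun w => by rw [← hb]; rfl
  have haw : a w = 1 := hw
  have hbw : b w ∈ τ.ker := by
    rw [MonoidHom.mem_ker, ← hαb, hαa, haw, map_one]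
  letI comm : CommGroup τ.ker := { (inferInstance : Group τ.ker) with
    mul_comm := fun a b => Subtype.ext (Subgroup.mem_center_iff.mp (hτ.2.1 a.2) _).symm }
  by_contra hne
  have hne' : (⟨b w, hbw⟩ : τ.ker) ≠ 1 := fun h => hne (congrArg Subtype.val h)
  have hexp : NeZero (Monoid.exponent τ.ker) := ⟨Monoid.exponent_ne_zero_of_finite⟩
  obtain ⟨l, hl⟩ := CommGroup.exists_apply_ne_one_of_hasEnoughRootsOfUnity τ.ker ℂ hne'
  obtain ⟨N, Ψ, hΨc, hΨ1⟩ := exists_monomial l hτ.1 hτ.2.1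
  let mk' := QuotientGroup.mk' (Subgroup.center (GL (Fin N) ℂ))
  obtain ⟨γ, hγ⟩ := exists_factor τ (mk'.comp Ψ) hτ.1 (by
    intro k hk
    rw [MonoidHom.mem_ker, MonoidHom.comp_apply]
    exact (QuotientGroup.eq_one_iff _).mpr (hΨc ⟨k, hk⟩))
  obtain ⟨ρ, hρ⟩ := hlift N γ
  have hcomp : ∀ x, mk' (ρ (a x)) = mk' (Ψ (b x)) := by
    intro x
    have h1 := congrArg (fun f => f (a x)) hρ
    have h2 := congrArg (fun f => f (b x)) hγ
    simp only [MonoidHom.comp_apply] at h1 h2
    have h3 : mk' (ρ (a x)) = γ (σ (a x)) := h1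
    rw [h3, ← hαa, hαb, h2]
  have hz : ∀ x, ρ (a x) = Ψ (b x) * ((Ψ (b x))⁻¹ * ρ (a x)) := fun x => by group
  have hzc : ∀ x, (Ψ (b x))⁻¹ * ρ (a x) ∈ Subgroup.center (GL (Fin N) ℂ) := by
    intro x
    exact QuotientGroup.eq.mp (hcomp x).symm
  have hEq : commutator (FreeGroup Q) ≤ MonoidHom.eqLocus (ρ.comp a) (Ψ.comp b) := by
    rw [commutator_eq_closure, Subgroup.closure_le]
    rintro _ ⟨x, y, rfl⟩
    show ρ (a ⁅x, y⁆) = Ψ (b ⁅x, y⁆)
    rw [map_commutatorElement, map_commutatorElement, map_commutatorElement, map_commutatorElement,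
      hz x, hz y]
    exact Product.comm_mul_central' _ _ _ _ (hzc x) (hzc y)
  have h1 : ρ (a w) = Ψ (b w) := hEq hw'
  rw [haw, map_one] at h1
  exact hl (hΨ1 ⟨b w, hbw⟩ h1.symm)

theorem id_isStem (Q : Type*) [Group Q] : IsStemExtension (MonoidHom.id Q) := by
  refine ⟨Function.surjective_id, ?_, ?_⟩
  · intro x hx
    have : x = 1 := hx
    rw [this]; exact one_mem _
  · intro x hx
    have : x = 1 := hx
    rw [this]; exact one_mem _

/-- A finite group has trivial multiplier iff projective representations lift. -/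
theorem trivial_multiplier_iff {Q : Type u} [Group Q] [Finite Q] :
    HasCyclicSchurMultiplier Q 1 ↔ ∀ (n : ℕ) (γ : Q →* (GL (Fin n) ℂ ⧸ Subgroup.center (GL (Fin n) ℂ))),
      ∃ ρ : Q →* GL (Fin n) ℂ, (QuotientGroup.mk' (Subgroup.center (GL (Fin n) ℂ))).comp ρ = γ := by
  constructor
  · intro h n γ
    have hk : Nonempty ((MonoidHom.id Q).ker ≃* Multiplicative (ZMod 1)) := by
      refine ⟨{ toFun := fun _ => 1, invFun := fun _ => 1, left_inv := ?_, right_inv := ?_, map_mul' := ?_ }⟩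
      · rintro ⟨x, hx⟩
        have : x = 1 := hx
        exact Subtype.ext this.symm
      · intro x
        exact Subsingleton.elim _ _
      · intro _ _
        exact Subsingleton.elim _ _
    exact lift_projective h (MonoidHom.id Q) (id_isStem Q) hk n γ
  · intro h
    apply Basic.hasCyclicSchurMultiplier_one_of
    intro Δ _ _ τ hτ
    obtain ⟨π, hπ⟩ := surj_of_lifts (MonoidHom.id Q) (id_isStem Q) h τ hτ
    rw [eq_bot_iff]
    intro x hx
    obtain ⟨y, hy⟩ := hπ ⟨x, hx⟩
    have hy1 : y = 1 := Subtype.ext y.2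
    rw [hy1, map_one] at hy
    exact Subgroup.mem_bot.mpr (congrArg Subtype.val hy).symm

end Cfsg.Agent.Lib.Schur.Proj
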