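import Mathlib
import Cfsg.Prelude.Def_KGroupFacts
import Cfsg.Agent.Lib.Schur.Hopf
import Cfsg.Agent.Lib.Schur.Proj

/-!
# Uniqueness of Schur covers
-/

set_option autoImplicit false

namespace Cfsg.Agent.Lib.Schur.Uniq

open Cfsg Cfsg.Agent.Lib.Schur.Hopf Cfsg.Agent.Lib.Schur.Proj
open scoped commutatorElement

universe u v

/-- Extension of a hom with coprime target. -/
theorem exists_ext_coprime {M Z : Type*} [CommGroup M] [CommGroup Z] [Finite Z] (L : Subgroup M)
    (m : ℕ) (hm : ∀ x : M, x ^ m ∈ L) (hc : Nat.Coprime (Nat.card Z) m) (l : L →* Z) :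
    ∃ μ : M →* Z, ∀ x : L, μ x = l x := by
  have hb : Function.Bijective (powMonoidHom m : Z →* Z) := (powCoprime hc).bijective
  let E : Z ≃* Z := MulEquiv.ofBijective _ hb
  let P : M →* L := (powMonoidHom m : M →* M).codRestrict L hm
  refine ⟨E.symm.toMonoidHom.comp (l.comp P), ?_⟩
  intro x
  show E.symm (l (P x)) = l x
  rw [MulEquiv.symm_apply_eq]
  have hP : P x = x ^ m := Subtype.ext rfl
  rw [hP, map_pow]
  rfl

open scoped IsMulCommutative in
/-- If the commutator quotient and the multiplier are coprime, a cover is unique. -/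
theorem unique_of_coprime {Q : Type u} [Group Q] [Finite Q] {A : Type v} [CommGroup A]
    (hA : HasSchurMultiplier Q A)
    (hcop : Nat.Coprime (Nat.card (Abelianization Q)) (Nat.card A))
    {Γ₁ Γ₂ : Type*} [Group Γ₁] [Finite Γ₁] [Group Γ₂] [Finite Γ₂] (σ₁ : Γ₁ →* Q) (σ₂ : Γ₂ →* Q)
    (hσ₁ : IsStemExtension σ₁) (hσ₂ : IsStemExtension σ₂) (hk₁ : Nonempty (σ₁.ker ≃* A))
    (hk₂ : Nonempty (σ₂.ker ≃* A)) : ∃ e : Γ₁ ≃* Γ₂, σ₂.comp e.toMonoidHom = σ₁ := by
  classical
  let α := alphaCan Q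
  have hα : Function.Surjective α := alphaCan_surjective Q
  obtain ⟨β₁, hβ₁⟩ := exists_lift α hσ₁.1
  obtain ⟨β₂, hβ₂⟩ := exists_lift α hσ₂.1
  have hα₁ : ∀ w, α w = σ₁ (β₁ w) := fun w => by rw [← hβ₁]; rfl
  have hα₂ : ∀ w, α w = σ₂ (β₂ w) := fun w => by rw [← hβ₂]; rfl
  have hc₁ := inf_commutator_le_cc_of_cover hA hσ₁ hk₁ hα hβ₁
  have hs₁ : Function.Surjective β₁ := lift_surjective_of_stem hα hσ₁ hβ₁
  have hcc₂ : cc α ≤ β₂.ker := cc_le_ker_of_lift hσ₂.2.1 hβ₂
  -- the central target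
  letI comm : CommGroup σ₂.ker := { (inferInstance : Group σ₂.ker) with
    mul_comm := fun a b => Subtype.ext (Subgroup.mem_center_iff.mp (hσ₂.2.1 a.2) _).symm }
  have hker₂ : ∀ t : β₁.ker, β₂ t ∈ σ₂.ker := by
    intro t
    rw [MonoidHom.mem_ker, ← hα₂, hα₁, show β₁ t = 1 from t.2, map_one]
  let l₀ : β₁.ker →* σ₂.ker := (β₂.comp β₁.ker.subtype).codRestrict σ₂.ker hker₂
  let φ : β₁.ker →* Abelianization (FreeGroup Q) := Abelianization.of.comp β₁.ker.subtype
  have hφ : φ.rangeRestrict.ker ≤ l₀.ker := by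
    intro t ht
    rw [MonoidHom.ker_rangeRestrict] at ht
    have h1 : (t : FreeGroup Q) ∈ commutator (FreeGroup Q) := (QuotientGroup.eq_one_iff _).mp ht
    have h2 := hcc₂ (hc₁ (Subgroup.mem_inf.mpr ⟨t.2, h1⟩))
    exact Subtype.ext h2
  obtain ⟨l, hl⟩ := exists_factor φ.rangeRestrict l₀ φ.rangeRestrict_surjective hφ
  have hpow : ∀ x : Abelianization (FreeGroup Q),
      x ^ Nat.card (Abelianization Q) ∈ φ.range := by
    intro x
    obtain ⟨w, rfl⟩ := QuotientGroup.mk'_surjective _ x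
    have h1 : (Abelianization.of (α w)) ^ Nat.card (Abelianization Q) = 1 := pow_card_eq_one'
    have h2 : (α w) ^ Nat.card (Abelianization Q) ∈ commutator Q := by
      rw [← map_pow] at h1
      exact (QuotientGroup.eq_one_iff _).mp h1
    have hmap : (commutator (FreeGroup Q)).map α = commutator Q :=
      map_commutator_eq (ξ := MonoidHom.id Q) hα (by
        intro x hx
        have : x = 1 := hx
        rw [this]; exact one_mem _) (MonoidHom.id_comp α)
    rw [← hmap] at h2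
    obtain ⟨f, hf, hf2⟩ := h2
    let s := w ^ Nat.card (Abelianization Q) * f⁻¹
    have hsS : s ∈ α.ker := by
      rw [MonoidHom.mem_ker, map_mul, map_inv, map_pow, hf2, mul_inv_cancel]
    have hβs : β₁ s ∈ σ₁.ker := by
      rw [MonoidHom.mem_ker, ← hα₁]
      exact hsS
    obtain ⟨w', hw', hw'2⟩ := exists_mem_inf_of_mem hα hσ₁.2.1 hβ₁ (hσ₁.2.2 hβs) hβs
    have ht : s * w'⁻¹ ∈ β₁.ker := by
      rw [MonoidHom.mem_ker, map_mul, map_inv, hw'2, mul_inv_cancel]
    refine ⟨⟨_, ht⟩, ?_⟩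
    show Abelianization.of (s * w'⁻¹) = _
    have hofw' : Abelianization.of w' = 1 := (QuotientGroup.eq_one_iff _).mpr hw'.2
    have hoff : Abelianization.of f = 1 := (QuotientGroup.eq_one_iff _).mpr hf
    simp only [s, map_mul, map_inv, map_pow, hofw', hoff, inv_one, mul_one]
    rfl
  have hcard : Nat.Coprime (Nat.card σ₂.ker) (Nat.card (Abelianization Q)) := by
    obtain ⟨e₂⟩ := hk₂
    rw [Nat.card_congr e₂.toEquiv]
    exact hcop.symm
  obtain ⟨μ, hμ⟩ := exists_ext_coprime φ.range _ hpow hcard l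
  have hcen : ∀ (z : σ₂.ker) (g : Γ₂), g * z = z * g :=
    fun z g => Subgroup.mem_center_iff.mp (hσ₂.2.1 z.2) g
  let β' : FreeGroup Q →* Γ₂ := MonoidHom.mk'
    (fun w => β₂ w * ((μ (Abelianization.of w))⁻¹ : σ₂.ker)) (by
    intro x y
    simp only [map_mul, mul_inv_rev, Subgroup.coe_mul]
    have h1 := hcen (μ (Abelianization.of x))⁻¹ (β₂ y)
    have h2 : ((μ (Abelianization.of y))⁻¹ : σ₂.ker) * ((μ (Abelianization.of x))⁻¹ : σ₂.ker)
        = ((μ (Abelianization.of x))⁻¹ : σ₂.ker) * ((μ (Abelianization.of y))⁻¹ : σ₂.ker) :=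
      mul_comm _ _
    have h3 := congrArg Subtype.val h2
    simp only [Subgroup.coe_mul] at h3
    rw [h3]
    calc β₂ x * β₂ y * (((μ (Abelianization.of x))⁻¹ : σ₂.ker) * ((μ (Abelianization.of y))⁻¹ : σ₂.ker))
        = β₂ x * (β₂ y * ((μ (Abelianization.of x))⁻¹ : σ₂.ker)) * ((μ (Abelianization.of y))⁻¹ : σ₂.ker) := by group
      _ = β₂ x * (((μ (Abelianization.of x))⁻¹ : σ₂.ker) * β₂ y) * ((μ (Abelianization.of y))⁻¹ : σ₂.ker) := by rw [h1]
      _ = _ := by group)
  have hβ' : σ₂.comp β' = α := by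
    apply MonoidHom.ext
    intro w
    show σ₂ (β₂ w * ((μ (Abelianization.of w))⁻¹ : σ₂.ker)) = α w
    rw [map_mul, ← hα₂, show σ₂ (((μ (Abelianization.of w))⁻¹ : σ₂.ker) : Γ₂) = 1 from ((μ (Abelianization.of w))⁻¹).2,
      mul_one]
  have hker : β₁.ker ≤ β'.ker := by
    intro t ht
    rw [MonoidHom.mem_ker]
    show β₂ t * ((μ (Abelianization.of t))⁻¹ : σ₂.ker) = 1
    have h1 : μ (Abelianization.of t) = l (φ.rangeRestrict ⟨t, ht⟩) := hμ (φ.rangeRestrict ⟨t, ht⟩)
    have h2 : l (φ.rangeRestrict ⟨t, ht⟩) = l₀ ⟨t, ht⟩ := congrArg (fun f => f ⟨t, ht⟩) hl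
    rw [h1, h2]
    show β₂ t * (β₂ t)⁻¹ = 1
    exact mul_inv_cancel _
  obtain ⟨e₀, he₀⟩ := exists_factor β₁ β' hs₁ hker
  have hsurj : Function.Surjective e₀ := by
    intro y
    obtain ⟨w, rfl⟩ := lift_surjective_of_stem hα hσ₂ hβ' y
    exact ⟨β₁ w, congrArg (fun f => f w) he₀⟩
  have hΓ : Nat.card Γ₁ = Nat.card Γ₂ := by
    obtain ⟨e₁⟩ := hk₁
    obtain ⟨e₂⟩ := hk₂
    rw [Subgroup.card_eq_card_quotient_mul_card_subgroup σ₁.ker,
      Subgroup.card_eq_card_quotient_mul_card_subgroup σ₂.ker,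
      Nat.card_congr (QuotientGroup.quotientKerEquivOfSurjective σ₁ hσ₁.1).toEquiv,
      Nat.card_congr (QuotientGroup.quotientKerEquivOfSurjective σ₂ hσ₂.1).toEquiv,
      Nat.card_congr e₁.toEquiv, Nat.card_congr e₂.toEquiv]
  have hb : Function.Bijective e₀ := (Nat.bijective_iff_surjective_and_card e₀).mpr ⟨hsurj, hΓ⟩
  refine ⟨MulEquiv.ofBijective e₀ hb, ?_⟩
  apply MonoidHom.ext
  intro y
  obtain ⟨w, rfl⟩ := hs₁ y
  show σ₂ (e₀ (β₁ w)) = σ₁ (β₁ w)
  have h1 : e₀ (β₁ w) = β' w := congrArg (fun f => f w) he₀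
  rw [h1, ← hα₁]
  exact congrArg (fun f => f w) hβ'

section Section

open scoped IsMulCommutative

variable {X : Type*} {G : Type*} [Group G] {α : FreeGroup X →* G}
variable {N : Submodule ℤ (FreeAbelianGroup X)} {n : ℕ} (bN : Module.Basis (Fin n) ℤ N)
variable {s : Fin n → FreeGroup X} (hs : ∀ i, s i ∈ α.ker)

/-- The section defined by a family of lifts of a basis. -/
noncomputable def gg : N →ₗ[ℤ] Additive (Subgroup.center (EE α)) :=
  bN.constr ℤ (fun i => Additive.ofMul (⟨(QuotientGroup.mk (s i) : EE α), mk_mem_center α (hs i)⟩ :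
    Subgroup.center (EE α)))

/-- The normal subgroup of `F` defined by a family of lifts of a basis. -/
noncomputable def TT : Subgroup (FreeGroup X) where
  carrier := {w | ∃ h : w ∈ α.ker, Additive.ofMul (⟨(QuotientGroup.mk w : EE α), mk_mem_center α h⟩ :
    Subgroup.center (EE α)) ∈ LinearMap.range (gg bN hs)}
  mul_mem' := by
    rintro a b ⟨h, x, hx⟩ ⟨h', y, hy⟩
    refine ⟨mul_mem h h', x + y, ?_⟩
    rw [map_add, hx, hy]
    rfl
  one_mem' := ⟨one_mem _, 0, by rw [map_zero]; rfl⟩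
  inv_mem' := by
    rintro a ⟨h, x, hx⟩
    refine ⟨inv_mem h, -x, ?_⟩
    rw [map_neg, hx]
    rfl

theorem gg_basis (i : Fin n) : gg bN hs (bN i) = Additive.ofMul (⟨(QuotientGroup.mk (s i) : EE α),
    mk_mem_center α (hs i)⟩ : Subgroup.center (EE α)) := by
  simp [gg]

theorem s_mem_TT (i : Fin n) : s i ∈ TT bN hs :=
  ⟨hs i, bN i, gg_basis bN hs i⟩

theorem TT_le_ker : TT bN hs ≤ α.ker := fun _ h => h.1

theorem cc_le_TT : cc α ≤ TT bN hs := by
  intro w hw
  have h1 : w ∈ α.ker := cc_le_ker α hw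
  refine ⟨h1, 0, ?_⟩
  rw [map_zero]
  have h2 : (QuotientGroup.mk w : EE α) = 1 := (QuotientGroup.eq_one_iff w).mpr hw
  have h3 : (⟨(QuotientGroup.mk w : EE α), mk_mem_center α h1⟩ : Subgroup.center (EE α)) = 1 :=
    Subtype.ext h2
  rw [h3]
  rfl

/-- The map from the centre to the free abelian group. -/
noncomputable def abW : Additive (Subgroup.center (EE α)) →ₗ[ℤ] FreeAbelianGroup X :=
  AddMonoidHom.toIntLinearMap
    (AddMonoidHom.mk' (fun z => Multiplicative.toAdd (abE α (Additive.toMul z : Subgroup.center (EE α)).1))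
      (by
        intro a b
        show Multiplicative.toAdd (abE α ((Additive.toMul a).1 * (Additive.toMul b).1)) = _
        rw [map_mul]
        rfl))

variable {bN}

theorem abW_gg (hab : ∀ i, Multiplicative.toAdd (abF X (s i)) = (bN i : FreeAbelianGroup X))
    (x : N) : abW (gg bN hs x) = x := by
  have h : (abW (α := α)) ∘ₗ (gg bN hs) = N.subtype := by
    apply bN.ext
    intro i
    show abW (gg bN hs (bN i)) = _
    rw [gg_basis]
    exact hab i
  exact congrArg (fun f => f x) h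

/-- Elements in the range of the section come from the kernel. -/
theorem exists_of_gg (x : N) : ∃ t ∈ α.ker, (QuotientGroup.mk t : EE α) =
    (Additive.toMul (gg bN hs x) : Subgroup.center (EE α)).1 := by
  let Y : AddSubgroup (Additive (Subgroup.center (EE α))) :=
    { carrier := {y | ∃ t ∈ α.ker, (QuotientGroup.mk t : EE α) =
        (Additive.toMul y : Subgroup.center (EE α)).1}
      add_mem' := by
        rintro a c ⟨t, ht, h⟩ ⟨t', ht', h'⟩
        refine ⟨t * t', mul_mem ht ht', ?_⟩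
        rw [QuotientGroup.mk_mul, h, h']
        rfl
      zero_mem' := ⟨1, one_mem _, rfl⟩
      neg_mem' := by
        rintro a ⟨t, ht, h⟩
        refine ⟨t⁻¹, inv_mem ht, ?_⟩
        rw [QuotientGroup.mk_inv, h]
        rfl }
  have hle : ∀ x : N, gg bN hs x ∈ AddSubgroup.toIntSubmodule Y := by
    intro x
    have hspan : x ∈ Submodule.span ℤ (Set.range bN) := by
      rw [bN.span_eq]; trivial
    induction hspan using Submodule.span_induction with
    | mem y hy =>
      obtain ⟨i, rfl⟩ := hy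
      rw [gg_basis]
      exact ⟨s i, hs i, rfl⟩
    | zero => rw [map_zero]; exact zero_mem _
    | add y z _ _ hy hz => rw [map_add]; exact add_mem hy hz
    | smul a y _ hy => rw [map_zsmul]; exact zsmul_mem hy a
  exact hle x

/-- A section meets the commutator subgroup trivially. -/
theorem TT_inf_le (hab : ∀ i, Multiplicative.toAdd (abF X (s i)) = (bN i : FreeAbelianGroup X)) :
    TT bN hs ⊓ commutator (FreeGroup X) ≤ cc α := by
  rintro w ⟨⟨h, x, hx⟩, hw⟩
  have h1 : abW (gg bN hs x) = x := abW_gg hs hab x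
  have h2 : abW (gg bN hs x) = Multiplicative.toAdd (abF X w) := by
    rw [hx]
    rfl
  have h3 : abF X w = 1 := by
    have : w ∈ (abF X).ker := by rw [abF_ker]; exact hw
    exact this
  have h4 : (x : FreeAbelianGroup X) = 0 := by
    rw [← h1, h2, h3]
    rfl
  have h5 : x = 0 := Subtype.ext h4
  rw [h5, map_zero] at hx
  have h6 := congrArg (fun y => ((Additive.toMul y : Subgroup.center (EE α)) : EE α)) hx
  exact (QuotientGroup.eq_one_iff w).mp h6.symm

/-- A section supplements the commutator subgroup in the kernel. -/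
theorem TT_supp (hab : ∀ i, Multiplicative.toAdd (abF X (s i)) = (bN i : FreeAbelianGroup X))
    (hN : ∀ w ∈ α.ker, Multiplicative.toAdd (abF X w) ∈ N) :
    ∀ w ∈ α.ker, ∃ t ∈ TT bN hs, ∃ m ∈ commutator (FreeGroup X), w = t * m := by
  intro w hw
  let x : N := ⟨_, hN w hw⟩
  obtain ⟨t, ht, ht2⟩ := exists_of_gg hs x
  have htT : t ∈ TT bN hs := by
    refine ⟨ht, x, ?_⟩
    apply Additive.toMul.injective
    apply Subtype.ext
    exact ht2.symm
  refine ⟨t, htT, t⁻¹ * w, ?_, by group⟩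
  rw [← abF_ker, MonoidHom.mem_ker, map_mul, map_inv]
  have h1 : abW (gg bN hs x) = x := abW_gg hs hab x
  have h2 : abW (gg bN hs x) = Multiplicative.toAdd (abE α (QuotientGroup.mk t)) := by
    rw [ht2]
    rfl
  have h3 : abE α (QuotientGroup.mk t) = abF X t := rfl
  rw [h2, h3] at h1
  have h4 : abF X t = abF X w := by
    apply Multiplicative.toAdd.injective
    exact h1
  rw [h4, inv_mul_cancel]

end Section

section Compare

open scoped IsMulCommutative

variable {X : Type*} {G : Type*} [Group G] {α : FreeGroup X →* G}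

/-- An isomorphism of two covers over `G` forces a relation in the multiplier. -/
theorem pow_of_iso {T₁ T₂ : Subgroup (FreeGroup X)} [T₁.Normal] [T₂.Normal]
    (hC₂ : cc α ≤ T₂) (hT₁ : T₁ ≤ α.ker) (hT₂ : T₂ ≤ α.ker)
    (hstem₂ : IsStemExtension (sigmaT hT₂)) (hbij : Function.Bijective (mmToKer hC₂ hT₂))
    (e : (FreeGroup X ⧸ T₁) ≃* (FreeGroup X ⧸ T₂))
    (he : (sigmaT hT₂).comp e.toMonoidHom = sigmaT hT₁)
    {s₀ m₀ y : FreeGroup X} {a : ℤ} (hs₀ : s₀ ∈ T₁) (hsm : s₀ * m₀ ∈ T₂)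
    (hab : abF X s₀ = abF X (y ^ a)) (z : MM α)
    (hz : (QuotientGroup.mk m₀ : EE α) = ((z : Subgroup.center (EE α)) : EE α)) :
    ∃ x : MM α, x ^ a = z := by
  let K₂ := (sigmaT hT₂).ker
  have hmem : ∀ w : FreeGroup X, e (QuotientGroup.mk w) * (QuotientGroup.mk w)⁻¹ ∈ K₂ := by
    intro w
    rw [MonoidHom.mem_ker, map_mul, map_inv]
    have h1 := congrArg (fun f => f (QuotientGroup.mk w)) he
    have h2 : (sigmaT hT₂) (e (QuotientGroup.mk w)) = sigmaT hT₁ (QuotientGroup.mk w) := h1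
    rw [h2, sigmaT_mk, sigmaT_mk, mul_inv_cancel]
  have hcen : ∀ (z : K₂) (g : FreeGroup X ⧸ T₂), g * z = z * g :=
    fun z g => Subgroup.mem_center_iff.mp (hstem₂.2.1 z.2) g
  let ν₀ : FreeGroup X →* K₂ := MonoidHom.mk' (fun w => ⟨_, hmem w⟩) (by
    intro x y
    apply Subtype.ext
    show e (QuotientGroup.mk (x * y)) * (QuotientGroup.mk (x * y))⁻¹ =
      (e (QuotientGroup.mk x) * (QuotientGroup.mk x)⁻¹) * (e (QuotientGroup.mk y) * (QuotientGroup.mk y)⁻¹)
    rw [QuotientGroup.mk_mul, map_mul, QuotientGroup.mk_mul, mul_inv_rev]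
    have h1 := hcen ⟨_, hmem y⟩ (QuotientGroup.mk x)⁻¹
    simp only at h1
    calc e (QuotientGroup.mk x) * e (QuotientGroup.mk y) * ((QuotientGroup.mk y)⁻¹ * (QuotientGroup.mk x)⁻¹)
        = e (QuotientGroup.mk x) * ((e (QuotientGroup.mk y) * (QuotientGroup.mk y)⁻¹) * (QuotientGroup.mk x)⁻¹) := by group
      _ = e (QuotientGroup.mk x) * ((QuotientGroup.mk x)⁻¹ * (e (QuotientGroup.mk y) * (QuotientGroup.mk y)⁻¹)) := by rw [h1]
      _ = _ := by group)
  let E : MM α ≃* K₂ := MulEquiv.ofBijective _ hbij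
  let ν : FreeGroup X →* MM α := E.symm.toMonoidHom.comp ν₀
  have hνc : commutator (FreeGroup X) ≤ ν.ker := by
    rw [commutator_def, Subgroup.commutator_le]
    intro g _ h _
    rw [MonoidHom.mem_ker, map_commutatorElement, commutatorElement_eq_one_iff_mul_comm, mul_comm]
  have hνs : ν s₀ = z := by
    show E.symm (ν₀ s₀) = z
    rw [MulEquiv.symm_apply_eq]
    apply Subtype.ext
    show e (QuotientGroup.mk s₀) * (QuotientGroup.mk s₀)⁻¹ = _
    have h1 : (QuotientGroup.mk s₀ : FreeGroup X ⧸ T₁) = 1 := (QuotientGroup.eq_one_iff s₀).mpr hs₀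
    rw [h1, map_one, one_mul]
    have h2 : ((E z : K₂) : FreeGroup X ⧸ T₂) = QuotientGroup.mk m₀ := by
      show (QuotientGroup.map (cc α) T₂ (MonoidHom.id _) (fun _ hx => hC₂ hx))
        ((z : Subgroup.center (EE α)) : EE α) = _
      rw [← hz]
      rfl
    rw [h2, inv_eq_iff_mul_eq_one, ← QuotientGroup.mk_mul]
    exact (QuotientGroup.eq_one_iff _).mpr hsm
  refine ⟨ν y, ?_⟩
  have h3 : s₀⁻¹ * y ^ a ∈ commutator (FreeGroup X) := by
    rw [← abF_ker, MonoidHom.mem_ker, map_mul, map_inv, hab, inv_mul_cancel]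
  have h4 : ν (s₀⁻¹ * y ^ a) = 1 := hνc h3
  rw [map_mul, map_inv, map_zpow, hνs] at h4
  exact (inv_mul_eq_one.mp h4).symm

end Compare

/-- A prime dividing the order of the commutator quotient divides a coefficient of the Smith
form of the kernel. -/
theorem exists_dvd_snf {Q : Type u} [Group Q] [Finite Q] {α : FreeGroup Q →* Q}
    (hα : Function.Surjective α) {N : Submodule ℤ (FreeAbelianGroup Q)}
    (hN : ∀ a, a ∈ N ↔ ∃ s ∈ α.ker, abF Q s = Multiplicative.ofAdd a) {n : ℕ}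
    (snf : Module.Basis.SmithNormalForm N Q n) {p : ℕ} (hp : p.Prime)
    (hpd : p ∣ Nat.card (Abelianization Q)) : ∃ i, (p : ℤ) ∣ snf.a i := by
  classical
  by_contra hcon
  push Not at hcon
  -- surjectivity of `abF`
  have habs : ∀ x : FreeAbelianGroup Q, ∃ w, Multiplicative.toAdd (abF Q w) = x := by
    intro x
    induction x using FreeAbelianGroup.induction_on with
    | zero => exact ⟨1, by simp⟩
    | of x => exact ⟨FreeGroup.of x, by simp [abF]⟩
    | neg x h =>
      exact ⟨(FreeGroup.of x)⁻¹, by simp [abF]⟩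
    | add x y hx hy =>
      obtain ⟨w, hw⟩ := hx
      obtain ⟨w', hw'⟩ := hy
      exact ⟨w * w', by rw [map_mul, toAdd_mul, hw, hw']⟩
  -- the map to the commutator quotient
  let φ : FreeAbelianGroup Q →+ Additive (Abelianization Q) :=
    FreeAbelianGroup.lift (fun q => Additive.ofMul (Abelianization.of (α (FreeGroup.of q))))
  have hφ : ∀ w, φ (Multiplicative.toAdd (abF Q w)) = Additive.ofMul (Abelianization.of (α w)) := by
    intro w
    let f₁ : FreeGroup Q →* Abelianization Q := Abelianization.of.comp α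
    let f₂ : FreeGroup Q →* Abelianization Q := MonoidHom.mk'
      (fun w => Additive.toMul (φ (Multiplicative.toAdd (abF Q w)))) (by
        intro a b
        rw [map_mul, toAdd_mul, map_add, toMul_add])
    have h : f₂ = f₁ := by
      apply FreeGroup.ext_hom
      intro q
      have h1 : abF Q (FreeGroup.of q) = Multiplicative.ofAdd (FreeAbelianGroup.of q) := by
        simp [abF]
      show Additive.toMul (φ (Multiplicative.toAdd (abF Q (FreeGroup.of q)))) = _
      rw [h1, toAdd_ofAdd]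
      simp only [φ, FreeAbelianGroup.lift_apply_of]
      rfl
    exact congrArg (fun f => Additive.ofMul (f w)) h
  have hφN : ∀ x ∈ N, φ x = 0 := by
    intro x hx
    obtain ⟨s, hs, h⟩ := (hN x).mp hx
    have : x = Multiplicative.toAdd (abF Q s) := by rw [h]; rfl
    rw [this, hφ, show α s = 1 from hs, map_one]
    rfl
  -- the coordinates
  have hrange : ∀ j, j ∈ Set.range snf.f := by
    intro j
    by_contra hj
    obtain ⟨w, hw⟩ := habs (snf.bM j)
    have hpow : w ^ Nat.card Q ∈ α.ker := by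
      rw [MonoidHom.mem_ker, map_pow, pow_card_eq_one']
    have hmemN : (Nat.card Q : ℤ) • snf.bM j ∈ N := by
      rw [hN]
      refine ⟨_, hpow, ?_⟩
      rw [map_pow, ← hw]
      apply Multiplicative.toAdd.injective
      rw [toAdd_pow, toAdd_ofAdd, natCast_zsmul]
    have hrepr : ∀ x : N, snf.bM.repr (x : FreeAbelianGroup Q) j = 0 := by
      intro x
      have hspan : x ∈ Submodule.span ℤ (Set.range snf.bN) := by
        rw [snf.bN.span_eq]; trivial
      induction hspan using Submodule.span_induction with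
      | mem y hy =>
        obtain ⟨i, rfl⟩ := hy
        rw [snf.snf, map_smul, Module.Basis.repr_self, Finsupp.smul_apply, Finsupp.single_apply, if_neg]
        · simp
        · rintro rfl
          exact hj ⟨i, rfl⟩
      | zero => simp
      | add y z _ _ hy hz =>
        rw [Submodule.coe_add, map_add, Finsupp.add_apply, hy, hz, add_zero]
      | smul a y _ hy =>
        rw [Submodule.coe_smul, map_smul, Finsupp.smul_apply, hy, smul_zero]
    have h1 := hrepr ⟨_, hmemN⟩
    simp only [map_smul, Module.Basis.repr_self, Finsupp.smul_apply, Finsupp.single_eq_same] at h1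
    have h2 : (Nat.card Q : ℤ) ≠ 0 := by exact_mod_cast Nat.card_pos.ne'
    simp at h1
    exact h2 (by exact_mod_cast h1)
  -- every element is a `p`-th power
  have hpow : ∀ x : FreeAbelianGroup Q, ∃ y, (p : ℤ) • y = φ x := by
    intro x
    have hspan : x ∈ Submodule.span ℤ (Set.range snf.bM) := by
      rw [snf.bM.span_eq]; trivial
    induction hspan using Submodule.span_induction with
    | mem y hy =>
      obtain ⟨j, rfl⟩ := hy
      obtain ⟨i, rfl⟩ := hrange j
      have h1 : snf.a i • φ (snf.bM (snf.f i)) = 0 := by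
        rw [← map_zsmul, ← snf.snf]
        exact hφN _ (snf.bN i).2
      have hpr : Prime (p : ℤ) := Nat.prime_iff_prime_int.mp hp
      have hco : IsCoprime (p : ℤ) (snf.a i) := (Prime.coprime_iff_not_dvd hpr).mpr (hcon i)
      obtain ⟨u, v, huv⟩ := hco
      refine ⟨u • φ (snf.bM (snf.f i)), ?_⟩
      have h2 : (u * p + v * snf.a i) • φ (snf.bM (snf.f i)) = φ (snf.bM (snf.f i)) := by
        rw [huv, one_smul]
      rw [add_smul, mul_smul v, h1, smul_zero, add_zero, mul_comm, mul_smul] at h2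
      exact h2
    | zero => exact ⟨0, by simp⟩
    | add y z _ _ hy hz =>
      obtain ⟨y₁, h₁⟩ := hy
      obtain ⟨z₁, h₂⟩ := hz
      exact ⟨y₁ + z₁, by rw [smul_add, h₁, h₂, map_add]⟩
    | smul a y _ hy =>
      obtain ⟨y₁, h₁⟩ := hy
      refine ⟨a • y₁, ?_⟩
      rw [smul_comm, h₁, map_zsmul]
  have hsurj : Function.Surjective (powMonoidHom p : Abelianization Q →* Abelianization Q) := by
    intro y
    obtain ⟨q, rfl⟩ := QuotientGroup.mk'_surjective _ y
    obtain ⟨w, rfl⟩ := hα q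
    obtain ⟨y₁, hy₁⟩ := hpow (Multiplicative.toAdd (abF Q w))
    rw [hφ] at hy₁
    refine ⟨Additive.toMul y₁, ?_⟩
    have := congrArg Additive.toMul hy₁
    have h : (Additive.toMul y₁) ^ p = Abelianization.of (α w) := by simpa using this
    exact h
  have hinj := Finite.injective_iff_surjective.mpr hsurj
  have : Fact p.Prime := ⟨hp⟩
  obtain ⟨y₀, hy₀⟩ := exists_prime_orderOf_dvd_card' p hpd
  have h1 : (powMonoidHom p : Abelianization Q →* Abelianization Q) y₀ =
      (powMonoidHom p : Abelianization Q →* Abelianization Q) 1 := by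
    simp only [powMonoidHom_apply, one_pow]
    rw [← hy₀, pow_orderOf_eq_one]
  have h2 := hinj h1
  rw [h2, orderOf_one] at hy₀
  exact hp.one_lt.ne hy₀

open scoped IsMulCommutative in
/-- If covers are unique over `Q`, the commutator quotient and the multiplier are coprime. -/
theorem coprime_of_unique {Q : Type u} [Group Q] [Finite Q] {A : Type v} [CommGroup A]
    (hA : HasSchurMultiplier Q A)
    (hU : ∀ (Γ₁ Γ₂ : Type u) [Group Γ₁] [Finite Γ₁] [Group Γ₂] [Finite Γ₂] (σ₁ : Γ₁ →* Q) (σ₂ : Γ₂ →* Q),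
      IsStemExtension σ₁ → IsStemExtension σ₂ → Nonempty (σ₁.ker ≃* A) → Nonempty (σ₂.ker ≃* A) →
      ∃ e : Γ₁ ≃* Γ₂, σ₂.comp e.toMonoidHom = σ₁) :
    Nat.Coprime (Nat.card (Abelianization Q)) (Nat.card A) := by
  classical
  by_contra hnc
  obtain ⟨p, hp, hp1, hp2⟩ := Nat.Prime.not_coprime_iff_dvd.mp hnc
  have : Fact p.Prime := ⟨hp⟩
  let α := alphaCan Q
  have hα : Function.Surjective α := alphaCan_surjective Q
  obtain ⟨eM⟩ := nonempty_mulEquiv_MM hA hα
  have hMf := finite_MM hα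
  let N : Submodule ℤ (FreeAbelianGroup Q) :=
    AddSubgroup.toIntSubmodule (Subgroup.toAddSubgroup' (α.ker.map (abF Q)))
  have hN : ∀ a : FreeAbelianGroup Q, a ∈ N ↔ ∃ s ∈ α.ker, abF Q s = Multiplicative.ofAdd a := by
    intro a
    constructor
    · intro h
      obtain ⟨s, hs, h2⟩ := (show Multiplicative.ofAdd a ∈ α.ker.map (abF Q) from h)
      exact ⟨s, hs, h2⟩
    · rintro ⟨s, hs, h2⟩
      exact (show Multiplicative.ofAdd a ∈ α.ker.map (abF Q) from ⟨s, hs, h2⟩)
  obtain ⟨n, snf⟩ := Submodule.smithNormalForm (FreeAbelianGroup.basis Q) N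
  obtain ⟨i₀, hi₀⟩ := exists_dvd_snf hα hN snf hp hp1
  let bN := snf.bN
  have hlift : ∀ i : Fin n, ∃ s ∈ α.ker, abF Q s = Multiplicative.ofAdd (bN i : FreeAbelianGroup Q) :=
    fun i => (hN _).mp (bN i).2
  choose s hs hab using hlift
  -- an element which is not a `p`-th power
  obtain ⟨z, hz⟩ : ∃ z : MM α, ∀ x : MM α, x ^ p ≠ z := by
    by_contra hcon
    push Not at hcon
    have hsurj : Function.Surjective (powMonoidHom p : MM α →* MM α) := by
      intro y
      obtain ⟨x, hx⟩ := hcon y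
      exact ⟨x, hx⟩
    have hinj := Finite.injective_iff_surjective.mpr hsurj
    have hpd : p ∣ Nat.card (MM α) := by
      rw [Nat.card_congr eM.toEquiv]
      exact hp2
    obtain ⟨y₀, hy₀⟩ := exists_prime_orderOf_dvd_card' p hpd
    have h1 : (powMonoidHom p : MM α →* MM α) y₀ = (powMonoidHom p : MM α →* MM α) 1 := by
      simp only [powMonoidHom_apply, one_pow]
      rw [← hy₀, pow_orderOf_eq_one]
    have h2 := hinj h1
    rw [h2, orderOf_one] at hy₀
    exact hp.one_lt.ne hy₀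
  obtain ⟨m₀, hm₀, hm₀z⟩ := (mem_MM_iff _).mp z.2
  have hm₀S : m₀ ∈ α.ker := hm₀.2
  have hm₀c : abF Q m₀ = 1 := by
    have : m₀ ∈ (abF Q).ker := by rw [abF_ker]; exact hm₀.1
    exact this
  let s' : Fin n → FreeGroup Q := Function.update s i₀ (s i₀ * m₀)
  have hs' : ∀ i, s' i ∈ α.ker := by
    intro i
    by_cases hi : i = i₀
    · subst hi
      simp only [s', Function.update_self]
      exact mul_mem (hs _) hm₀S
    · simp only [s', Function.update_of_ne hi]
      exact hs i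
  have hab₁ : ∀ i, Multiplicative.toAdd (abF Q (s i)) = (bN i : FreeAbelianGroup Q) := fun i => by
    rw [hab]; rfl
  have hab₂ : ∀ i, Multiplicative.toAdd (abF Q (s' i)) = (bN i : FreeAbelianGroup Q) := by
    intro i
    by_cases hi : i = i₀
    · subst hi
      simp only [s', Function.update_self]
      rw [map_mul, hm₀c, mul_one]
      exact hab₁ _
    · simp only [s', Function.update_of_ne hi]
      exact hab₁ i
  have hNS : ∀ w ∈ α.ker, Multiplicative.toAdd (abF Q w) ∈ N := fun w hw =>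
    (hN _).mpr ⟨w, hw, rfl⟩
  -- the two covers
  let T₁ := TT bN hs
  let T₂ := TT bN hs'
  have hC₁ : cc α ≤ T₁ := cc_le_TT bN hs
  have hC₂ : cc α ≤ T₂ := cc_le_TT bN hs'
  have hS₁ : T₁ ≤ α.ker := TT_le_ker bN hs
  have hS₂ : T₂ ≤ α.ker := TT_le_ker bN hs'
  have hF₁ := TT_inf_le hs hab₁
  have hF₂ := TT_inf_le hs' hab₂
  have hsupp₁ := TT_supp hs hab₁ hNS
  have hsupp₂ := TT_supp hs' hab₂ hNS
  have hn₁ : T₁.Normal := normal_of_between hC₁ hS₁
  have hn₂ : T₂.Normal := normal_of_between hC₂ hS₂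
  have hf₁ := finite_quot hα hC₁ hS₁ hsupp₁
  have hf₂ := finite_quot hα hC₂ hS₂ hsupp₂
  have hst₁ := isStem_sigmaT hα hC₁ hS₁ hsupp₁
  have hst₂ := isStem_sigmaT hα hC₂ hS₂ hsupp₂
  have hb₁ := mmToKer_bijective hC₁ hS₁ hF₁ hsupp₁
  have hb₂ := mmToKer_bijective hC₂ hS₂ hF₂ hsupp₂
  obtain ⟨e, he⟩ := hU (FreeGroup Q ⧸ T₁) (FreeGroup Q ⧸ T₂) (sigmaT hS₁) (sigmaT hS₂) hst₁ hst₂
    ⟨(MulEquiv.ofBijective _ hb₁).symm.trans eM⟩ ⟨(MulEquiv.ofBijective _ hb₂).symm.trans eM⟩
  -- the relation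
  have habs : ∃ y, Multiplicative.toAdd (abF Q y) = snf.bM (snf.f i₀) := by
    generalize snf.bM (snf.f i₀) = x
    induction x using FreeAbelianGroup.induction_on with
    | zero => exact ⟨1, by simp⟩
    | of x => exact ⟨FreeGroup.of x, by simp [abF]⟩
    | neg x h =>
      exact ⟨(FreeGroup.of x)⁻¹, by simp [abF]⟩
    | add x y hx hy =>
      obtain ⟨w, hw⟩ := hx
      obtain ⟨w', hw'⟩ := hy
      exact ⟨w * w', by rw [map_mul, toAdd_mul, hw, hw']⟩
  obtain ⟨y, hy⟩ := habs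
  have hs₀ : s i₀ ∈ T₁ := s_mem_TT bN hs i₀
  have hsm : s i₀ * m₀ ∈ T₂ := by
    have := s_mem_TT bN hs' i₀
    simpa only [s', Function.update_self] using this
  have habz : abF Q (s i₀) = abF Q (y ^ snf.a i₀) := by
    apply Multiplicative.toAdd.injective
    rw [hab₁, map_zpow, toAdd_zpow, hy]
    exact snf.snf i₀
  obtain ⟨x, hx⟩ := pow_of_iso hC₂ hS₁ hS₂ hst₂ hb₂ e he hs₀ hsm habz z hm₀z
  obtain ⟨c, hc⟩ := hi₀
  apply hz (x ^ c)
  rw [← hx, hc, ← zpow_natCast, ← zpow_mul, mul_comm]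

/-- The uniqueness criterion. -/
theorem unique_iff_coprime {Q : Type u} [Group Q] [Finite Q] {A : Type v} [CommGroup A]
    (hA : HasSchurMultiplier Q A) :
    (∀ (Γ₁ Γ₂ : Type u) [Group Γ₁] [Finite Γ₁] [Group Γ₂] [Finite Γ₂] (σ₁ : Γ₁ →* Q) (σ₂ : Γ₂ →* Q),
      IsStemExtension σ₁ → IsStemExtension σ₂ → Nonempty (σ₁.ker ≃* A) → Nonempty (σ₂.ker ≃* A) →
      ∃ e : Γ₁ ≃* Γ₂, σ₂.comp e.toMonoidHom = σ₁) ↔
    Nat.Coprime (Nat.card (Abelianization Q)) (Nat.card A) :=
  ⟨coprime_of_unique hA, fun hcop _ _ _ _ _ _ σ₁ σ₂ h₁ h₂ k₁ k₂ =>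
    unique_of_coprime hA hcop σ₁ σ₂ h₁ h₂ k₁ k₂⟩

end Cfsg.Agent.Lib.Schur.Uniq
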